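import Cfsg.Agent.H674.SUBlock

/-!
# `PSL₄(K)`, `PSU₄(Q)`: elements of prime order from the `3`-dimensional block centralise `diag(a, a, a, a⁻³)`
-/

set_option autoImplicit false

namespace Cfsg.Agent.H976.Four

open Matrix Cfsg.Agent.LieClassical Cfsg.Agent.H674.SUTools Cfsg.Agent.H674.SUBlock

variable {K : Type*} [Field K]

/-- scalar block matrices -/
theorem blk_scalar (a b : K) (A : Matrix (Fin 3) (Fin 3) K) (B : Matrix (Fin 1) (Fin 1) K) :
    blk A B * blk (Matrix.scalar (Fin 3) a) (Matrix.scalar (Fin 1) b) =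
      blk (Matrix.scalar (Fin 3) a) (Matrix.scalar (Fin 1) b) * blk A B := by
  rw [← blk_mul, ← blk_mul, (Matrix.scalar_commute a (fun _ => mul_comm _ _) A).eq,
    (Matrix.scalar_commute b (fun _ => mul_comm _ _) B).eq]

theorem det_scalar' (n : ℕ) (a : K) : (Matrix.scalar (Fin n) a).det = a ^ n := by
  rw [Matrix.scalar_apply, Matrix.det_diagonal, Finset.prod_const, Finset.card_univ, Fintype.card_fin]

theorem blk_scalar_pow (a b : K) (n : ℕ) :
    blk (Matrix.scalar (Fin 3) a) (Matrix.scalar (Fin 1) b) ^ n =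
      blk (Matrix.scalar (Fin 3) (a ^ n)) (Matrix.scalar (Fin 1) (b ^ n)) := by
  induction n with
  | zero => rw [pow_zero, pow_zero, pow_zero, map_one, map_one, blk_one]
  | succ n ih => rw [pow_succ, ih, ← blk_mul, pow_succ, pow_succ, map_mul, map_mul]

/-- if the block matrix is scalar, both blocks are the same scalar -/
theorem eq_of_blk_scalar {c : K} {A : Matrix (Fin 3) (Fin 3) K} {B : Matrix (Fin 1) (Fin 1) K}
    (h : blk A B = Matrix.scalar (Fin (3 + 1)) c) : A = Matrix.scalar (Fin 3) c ∧ B = Matrix.scalar (Fin 1) c := by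
  apply blk_inj
  rw [h]
  have h1 : blk (Matrix.scalar (Fin 3) c) (Matrix.scalar (Fin 1) c) =
      c • blk (1 : Matrix (Fin 3) (Fin 3) K) (1 : Matrix (Fin 1) (Fin 1) K) := by
    rw [blk, blk]
    ext i j
    simp only [Matrix.reindex_apply, Matrix.submatrix_apply, Matrix.smul_apply]
    rcases finSumFinEquiv.symm i with i' | i' <;> rcases finSumFinEquiv.symm j with j' | j' <;>
      simp [Matrix.one_apply, Matrix.diagonal_apply]
  rw [h1, blk_one]
  ext i j
  simp [Matrix.one_apply, Matrix.diagonal_apply]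

variable [Fintype K]

theorem psl4 {r : ℕ} (hr : r.Prime) (hrd : r ∣ Nat.card (Matrix.SpecialLinearGroup (Fin 3) K))
    (hK : 8 ≤ Fintype.card K) :
    ∃ x z : Matrix.ProjectiveSpecialLinearGroup (Fin 4) K, orderOf x = r ∧ Commute x z ∧ z ≠ 1 ∧
      z ^ (Fintype.card K - 1) = 1 := by
  classical
  have : Fact r.Prime := ⟨hr⟩
  obtain ⟨y, hy⟩ := exists_prime_orderOf_dvd_card' r hrd
  obtain ⟨a, ha⟩ := IsCyclic.exists_generator (α := Kˣ)
  have ho : orderOf a = Fintype.card K - 1 := by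
    rw [orderOf_eq_card_of_forall_mem_zpowers ha, Nat.card_eq_fintype_card, Fintype.card_units]
  let Y : Matrix.SpecialLinearGroup (Fin (3 + 1)) K := ⟨blk y.1 1, by rw [det_blk, y.2, Matrix.det_one, one_mul]⟩
  let Z : Matrix.SpecialLinearGroup (Fin (3 + 1)) K :=
    ⟨blk (Matrix.scalar (Fin 3) (a : K)) (Matrix.scalar (Fin 1) ((a : K)⁻¹ ^ 3)), by
      rw [det_blk, det_scalar', det_scalar', pow_one, ← mul_pow, mul_inv_cancel₀ a.ne_zero, one_pow]⟩
  have hYpow : ∀ n, (Y ^ n).1 = blk (y ^ n).1 1 := by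
    intro n
    induction n with
    | zero => rw [pow_zero, pow_zero]; exact blk_one.symm
    | succ n ih =>
      rw [pow_succ, pow_succ, Matrix.SpecialLinearGroup.coe_mul, Matrix.SpecialLinearGroup.coe_mul, ih]
      show blk _ _ * blk _ _ = _
      rw [← blk_mul, one_mul]
  have hYc : Y ∉ Subgroup.center (Matrix.SpecialLinearGroup (Fin (3 + 1)) K) := by
    intro h
    obtain ⟨c, -, hc⟩ := Matrix.SpecialLinearGroup.mem_center_iff.1 h
    obtain ⟨h1, h2⟩ := eq_of_blk_scalar hc.symm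
    have h3 : c = 1 := by
      have h4 := congrFun (congrFun h2 0) 0
      simpa using h4.symm
    rw [h3, map_one] at h1
    have h5 : y = 1 := Subtype.ext h1
    rw [h5, orderOf_one] at hy
    exact hr.one_lt.ne hy
  have hZc : Z ∉ Subgroup.center (Matrix.SpecialLinearGroup (Fin (3 + 1)) K) := by
    intro h
    obtain ⟨c, -, hc⟩ := Matrix.SpecialLinearGroup.mem_center_iff.1 h
    obtain ⟨h1, h2⟩ := eq_of_blk_scalar hc.symm
    have h3 : (a : K) = c := by
      have h4 := congrFun (congrFun h1 0) 0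
      simpa using h4
    have h4 : (a : K)⁻¹ ^ 3 = c := by
      have h4 := congrFun (congrFun h2 0) 0
      simpa using h4
    have h5 : a ^ 4 = 1 := by
      apply Units.ext
      rw [Units.val_pow_eq_pow_val, Units.val_one, pow_succ (a : K) 3]
      nth_rewrite 2 [h3]
      rw [← h4, ← mul_pow, mul_inv_cancel₀ a.ne_zero, one_pow]
    have h6 := Nat.le_of_dvd (by norm_num) (orderOf_dvd_of_pow_eq_one h5)
    omega
  refine ⟨QuotientGroup.mk' _ Y, QuotientGroup.mk' _ Z, ?_, ?_, ?_, ?_⟩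
  · have h1 : (QuotientGroup.mk' (Subgroup.center (Matrix.SpecialLinearGroup (Fin (3 + 1)) K)) Y) ^ r = 1 := by
      rw [← map_pow]
      have h2 : Y ^ r = 1 := by
        apply Subtype.ext
        rw [hYpow, ← hy, pow_orderOf_eq_one]
        exact blk_one
      rw [h2, map_one]
    exact orderOf_eq_prime h1 fun h => hYc ((QuotientGroup.eq_one_iff _).1 h)
  · have h1 : Commute Y Z := Subtype.ext (blk_scalar _ _ _ _)
    exact h1.map _
  · exact fun h => hZc ((QuotientGroup.eq_one_iff _).1 h)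
  · rw [← map_pow]
    have h2 : Z ^ (Fintype.card K - 1) = 1 := by
      apply Subtype.ext
      rw [Matrix.SpecialLinearGroup.coe_pow]
      show blk _ _ ^ _ = 1
      rw [blk_scalar_pow]
      have h3 : (a : K) ^ (Fintype.card K - 1) = 1 := by
        rw [← Units.val_pow_eq_pow_val, ← ho, pow_orderOf_eq_one, Units.val_one]
      rw [h3, ← pow_mul, mul_comm, pow_mul, inv_pow, h3, inv_one, one_pow, map_one, map_one, blk_one]
    rw [h2, map_one]

/-- an element of order `q + 1` -/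
theorem exists_norm_gen {q : ℕ} (hF : Fintype.card K = q ^ 2) (hq : 1 ≤ q) : ∃ a : Kˣ, orderOf a = q + 1 := by
  classical
  obtain ⟨g, hg⟩ := IsCyclic.exists_ofOrder_eq_natCard (α := Kˣ)
  have h1 : Nat.card Kˣ = (q - 1) * (q + 1) := by
    rw [Nat.card_eq_fintype_card, Fintype.card_units, hF]
    obtain ⟨x, rfl⟩ : ∃ x, q = x + 1 := ⟨q - 1, by omega⟩
    apply Nat.sub_eq_of_eq_add
    rw [Nat.add_sub_cancel]
    ring
  rw [h1] at hg
  refine ⟨g ^ (q - 1), ?_⟩
  have h3 : 0 < q - 1 := by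
    by_contra h4
    have h5 : q = 1 := by omega
    rw [h5] at hF
    exact Fintype.one_lt_card.ne' hF
  rw [orderOf_pow, hg, Nat.gcd_mul_right_left, Nat.mul_div_cancel_left _ h3]

theorem frob_apply' {q : ℕ} (hF : Fintype.card K = q ^ 2) (x : K) : GUOrder.frob hF x = x ^ q := rfl

theorem isom_scalar {q : ℕ} (hF : Fintype.card K = q ^ 2) (n : ℕ) {a : K} (ha : a ^ (q + 1) = 1) :
    (Matrix.scalar (Fin n) a)ᵀ * (Matrix.scalar (Fin n) a).map (GUOrder.frob hF) = 1 := by
  rw [Matrix.scalar_apply, Matrix.diagonal_transpose, Matrix.diagonal_map (map_zero _), Matrix.diagonal_mul_diagonal,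
    ← Matrix.diagonal_one]
  congr 1
  funext i
  show a * GUOrder.frob hF a = 1
  rw [frob_apply', ← pow_succ', ha]

theorem psu4 {r Q : ℕ} (hF : Fintype.card K = Q ^ 2) (hr : r.Prime) (hrd : r ∣ Nat.card (Cfsg.SU 3 K Q))
    (hQ : 8 ≤ Q) :
    ∃ x z : Cfsg.PSU 4 K Q, orderOf x = r ∧ Commute x z ∧ z ≠ 1 ∧ z ^ (Q + 1) = 1 := by
  classical
  have : Fact r.Prime := ⟨hr⟩
  obtain ⟨y, hy⟩ := exists_prime_orderOf_dvd_card' r hrd
  obtain ⟨a, ha⟩ := exists_norm_gen hF (by omega)
  have ha1 : (a : K) ^ (Q + 1) = 1 := by rw [← Units.val_pow_eq_pow_val, ← ha, pow_orderOf_eq_one, Units.val_one]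
  have ha2 : ((a : K)⁻¹ ^ 3) ^ (Q + 1) = 1 := by rw [← pow_mul, mul_comm, pow_mul, inv_pow, ha1, inv_one, one_pow]
  let Z : Cfsg.SU (3 + 1) K Q := mkSU hF (blk (Matrix.scalar (Fin 3) (a : K)) (Matrix.scalar (Fin 1) ((a : K)⁻¹ ^ 3)))
    (by rw [det_blk, det_scalar', det_scalar', pow_one, ← mul_pow, mul_inv_cancel₀ a.ne_zero, one_pow])
    (isom_blk hF (isom_scalar hF 3 ha1) (isom_scalar hF 1 ha2))
  have hZc : Z ∉ Subgroup.center (Cfsg.SU (3 + 1) K Q) := by
    intro h
    obtain ⟨c, hcn, hcq, hc⟩ := (SUBasic.mem_center_SU_iff hF (by norm_num) _).1 h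
    have hc' : blk (Matrix.scalar (Fin 3) (a : K)) (Matrix.scalar (Fin 1) ((a : K)⁻¹ ^ 3)) =
      Matrix.scalar (Fin (3 + 1)) c := congrArg cm hc
    obtain ⟨h1, h2⟩ := eq_of_blk_scalar hc'
    have h3 : (a : K) = c := by
      have h4 := congrFun (congrFun h1 0) 0
      simpa using h4
    have h4 : (a : K)⁻¹ ^ 3 = c := by
      have h4 := congrFun (congrFun h2 0) 0
      simpa using h4
    have h5 : a ^ 4 = 1 := by
      apply Units.ext
      rw [Units.val_pow_eq_pow_val, Units.val_one, pow_succ (a : K) 3]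
      nth_rewrite 2 [h3]
      rw [← h4, ← mul_pow, mul_inv_cancel₀ a.ne_zero, one_pow]
    have h6 := Nat.le_of_dvd (by norm_num) (orderOf_dvd_of_pow_eq_one h5)
    omega
  refine ⟨(pr : Cfsg.SU (3 + 1) K Q →* Cfsg.PSU (3 + 1) K Q).comp (ext hF 1) y, pr Z, ?_, ?_, ?_, ?_⟩
  · rw [orderOf_injective _ (pr_ext_injective hF (by norm_num) (by norm_num)), hy]
  · have h1 : Commute (ext hF 1 y) Z := by
      apply cm_injective
      rw [map_mul, map_mul, cm_ext, cm_mkSU]
      exact blk_scalar _ _ _ _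
    exact h1.map (pr : Cfsg.SU (3 + 1) K Q →* Cfsg.PSU (3 + 1) K Q)
  · exact fun h => hZc ((pr_eq_one_iff _).1 h)
  · rw [← map_pow]
    have h2 : Z ^ (Q + 1) = 1 := by
      rw [← cm_pow_eq_one_iff, cm_mkSU, blk_scalar_pow, ha1, ha2, map_one, map_one, blk_one]
    rw [h2, map_one]

end Cfsg.Agent.H976.Four
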